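import Cfsg.Agent.AutPSL.GraphTypes
import Cfsg.Agent.Classical.Symp.Card

/-!
# Split counts of involutory graph automorphisms; symplectic and orthogonal similitude groups differ in order
-/

set_option autoImplicit false

namespace CfsgLib.AutPSL

open Matrix
open scoped MatrixGroups

variable {F : Type*} [Field F] {n : ℕ} {ι : Type} [Fintype ι] [DecidableEq ι]

theorem det_sq_of_sim {h a : GL (Fin n) F} {c : Fˣ} (ha : a.1 * h.1 * a.1ᵀ = (c : F) • h.1) :
    Matrix.GeneralLinearGroup.det a ^ 2 = c ^ n := by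
  refine Units.ext ?_
  have h1 := congrArg Matrix.det ha
  rw [det_mul, det_mul, det_transpose, det_smul, Fintype.card_fin] at h1
  simp only [Units.val_pow_eq_pow_val]
  refine mul_right_cancel₀ (det_ne_zero_GL h) ?_
  change a.1.det ^ 2 * _ = _
  linear_combination h1

/-- Conjugating a similitude along a congruence. -/
theorem sim_transport {h h' : Matrix ι ι F} {g : GL ι F} (hg : g.1 * h * g.1ᵀ = h') (a : GL ι F)
    (c : F) (ha : a.1 * h * a.1ᵀ = c • h) : (g * a * g⁻¹).1 * h' * (g * a * g⁻¹).1ᵀ = c • h' := by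
  rw [← hg]
  simp only [Units.val_mul, transpose_mul]
  calc g.1 * a.1 * (g⁻¹).1 * (g.1 * h * g.1ᵀ) * ((g⁻¹).1ᵀ * (a.1ᵀ * g.1ᵀ))
      = g.1 * a.1 * ((g⁻¹).1 * g.1) * h * (g.1ᵀ * (g⁻¹).1ᵀ) * (a.1ᵀ * g.1ᵀ) := by
        simp only [Matrix.mul_assoc]
    _ = g.1 * (a.1 * h * a.1ᵀ) * g.1ᵀ := by
        rw [← transpose_mul, Units.inv_mul, transpose_one, Matrix.mul_one, Matrix.mul_one]
        simp only [Matrix.mul_assoc]
    _ = _ := by rw [ha, Matrix.mul_smul, Matrix.smul_mul]

theorem det_conj (g a : GL ι F) :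
    Matrix.GeneralLinearGroup.det (g * a * g⁻¹) = Matrix.GeneralLinearGroup.det a := by
  rw [map_mul, map_mul, map_inv, mul_right_comm, mul_inv_cancel, one_mul]

/-- The standard similitude of multiplier `c`. -/
def sympDiag (m : ℕ) (c : Fˣ) : GL (Fin m ⊕ Fin m) F :=
  ⟨Matrix.fromBlocks 1 0 0 ((c : F) • 1), Matrix.fromBlocks 1 0 0 (((c⁻¹ : Fˣ) : F) • 1),
    by simp [fromBlocks_multiply, smul_smul], by simp [fromBlocks_multiply, smul_smul]⟩

theorem sympDiag_sim (m : ℕ) (c : Fˣ) :
    (sympDiag (F := F) m c).1 * Matrix.J (Fin m) F * (sympDiag m c).1ᵀ = (c : F) • Matrix.J (Fin m) F := by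
  simp [sympDiag, Matrix.J, fromBlocks_multiply, fromBlocks_transpose, fromBlocks_smul]

theorem det_sympDiag (m : ℕ) (c : Fˣ) : Matrix.GeneralLinearGroup.det (sympDiag (F := F) m c) = c ^ m :=
  Units.ext (by
    change (Matrix.fromBlocks (1 : Matrix (Fin m) (Fin m) F) 0 0 ((c : F) • 1)).det = _
    rw [det_fromBlocks_zero₂₁, det_smul, det_one]
    simp)

theorem det_symp_sim {m : ℕ} {b : GL (Fin m ⊕ Fin m) F} {c : Fˣ}
    (hb : b.1 * Matrix.J (Fin m) F * b.1ᵀ = (c : F) • Matrix.J (Fin m) F) :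
    Matrix.GeneralLinearGroup.det b = c ^ m := by
  set D := sympDiag (F := F) m c
  have h1 : (D⁻¹).1 * ((c : F) • Matrix.J (Fin m) F) * (D⁻¹).1ᵀ = Matrix.J (Fin m) F := by
    rw [← sympDiag_sim]
    calc _ = ((D⁻¹).1 * D.1) * Matrix.J (Fin m) F * (((D⁻¹).1 * D.1)ᵀ) := by
          rw [transpose_mul]; simp only [Matrix.mul_assoc]; rfl
      _ = _ := by rw [Units.inv_mul, transpose_one, Matrix.one_mul, Matrix.mul_one]
  have h2 : ((D⁻¹ * b).1) ∈ Matrix.symplecticGroup (Fin m) F := by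
    rw [SymplecticGroup.mem_iff, Units.val_mul, transpose_mul]
    calc (D⁻¹).1 * b.1 * Matrix.J (Fin m) F * (b.1ᵀ * (D⁻¹).1ᵀ)
        = (D⁻¹).1 * (b.1 * Matrix.J (Fin m) F * b.1ᵀ) * (D⁻¹).1ᵀ := by simp only [Matrix.mul_assoc]
      _ = _ := by rw [hb, h1]
  have h3 : Matrix.GeneralLinearGroup.det (D⁻¹ * b) = 1 := Units.ext (SymplecticGroup.det_eq_one h2)
  rw [map_mul, map_inv, inv_mul_eq_one, det_sympDiag] at h3
  exact h3.symm

theorem index_pow_le {A : Type*} [CommGroup A] {k l : ℕ} (hkl : k ∣ l) :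
    (powMonoidHom l : A →* A).range ≤ (powMonoidHom k : A →* A).range := by
  rintro _ ⟨u, rfl⟩
  obtain ⟨d, rfl⟩ := hkl
  exact ⟨u ^ d, by simp [← pow_mul, mul_comm]⟩

/-- Split count in symplectic type. -/
theorem splitCount_skew [Fintype F] {m : ℕ} (hn : 2 ≤ n) (hnm : n = 2 * m) (h2 : (2 : F) ≠ 0)
    (h : GL (Fin n) F) (hs : h.1ᵀ = -h.1) :
    Cfsg.splitClassCount (Cfsg.inndiagPSL n F) (Cfsg.Inn (Matrix.ProjectiveSpecialLinearGroup (Fin n) F))
      (gamma h) = Nat.gcd m (Fintype.card F - 1) := by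
  let e : Fin m ⊕ Fin m ≃ Fin n := Fintype.equivFinOfCardEq (by simp; omega)
  obtain ⟨g, hg⟩ := (skew_type hn e h hs (skew_diag_zero h2 hs)).1
  rw [gamma_splitCount hn h (powMonoidHom m : Fˣ →* Fˣ).range]
  · rw [sup_eq_right.mpr (index_pow_le ⟨2, by omega⟩), IsCyclic.index_powMonoidHom_range,
      Nat.card_units, Nat.card_eq_fintype_card, Nat.gcd_comm]
  · intro a c ha
    refine Subgroup.mem_sup_right ⟨c, ?_⟩
    have h1 := sim_transport hg a _ ha
    set b := (reindexGL e).symm (g * a * g⁻¹) with hb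
    have hgb : reindexGL e b = g * a * g⁻¹ := (reindexGL e).apply_symm_apply _
    have h4 : b.1 * Matrix.J (Fin m) F * b.1ᵀ = (c : F) • Matrix.J (Fin m) F := by
      rw [← hgb, coe_reindexGL, coe_reindexGL, transpose_submatrix, submatrix_mul_equiv,
        submatrix_mul_equiv, ← submatrix_smul'] at h1
      exact (Matrix.reindex e e).injective h1
    have h5 : Matrix.GeneralLinearGroup.det (reindexGL e b) = Matrix.GeneralLinearGroup.det b :=
      Units.ext (det_reindexGL e b)
    rw [powMonoidHom_apply, ← det_symp_sim h4, ← h5, hgb, det_conj]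
  · rintro _ ⟨c, rfl⟩
    have h1 : (reindexGL e (sympDiag m c)).1 * (reindexGL e (unitJ (F := F) m)).1 *
        (reindexGL e (sympDiag m c)).1ᵀ = (c : F) • (reindexGL e (unitJ (F := F) m)).1 := by
      simp only [coe_reindexGL, transpose_submatrix, submatrix_mul_equiv]
      change (_ * Matrix.J (Fin m) F * _ : Matrix _ _ F).submatrix _ _ = _
      rw [sympDiag_sim]
      rfl
    have hg' : (g⁻¹).1 * (reindexGL e (unitJ (F := F) m)).1 * (g⁻¹).1ᵀ = h.1 := by
      rw [← hg]
      calc _ = ((g⁻¹).1 * g.1) * h.1 * (((g⁻¹).1 * g.1)ᵀ) := by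
            rw [transpose_mul]; simp only [Matrix.mul_assoc]
        _ = _ := by rw [Units.inv_mul, transpose_one, Matrix.one_mul, Matrix.mul_one]
    refine ⟨g⁻¹ * reindexGL e (sympDiag m c) * g⁻¹⁻¹, c, sim_transport hg' _ _ h1, ?_⟩
    rw [det_conj, powMonoidHom_apply, ← det_sympDiag]
    exact Units.ext (det_reindexGL e _)

/-- The diagonal matrix with one entry changed. -/
def diagAt (hn : 2 ≤ n) (u : Fˣ) : GL (Fin n) F := diagGL (Function.update 1 (idx0 hn) u)

theorem diagAt_eq_firstDiag (hn : 2 ≤ n) (u : Fˣ) : diagAt hn u = firstDiag hn u := rfl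

theorem diag_congr [Fintype F] (hn : 2 ≤ n) (h2 : (2 : F) ≠ 0) (h : GL (Fin n) F) (hs : h.1ᵀ = h.1) :
    ∃ g : GL (Fin n) F, g.1 * (firstDiag hn (Matrix.GeneralLinearGroup.det h)).1 * g.1ᵀ = h.1 := by
  refine congr_of_isSquare_det h2 _ h (diagonal_transpose _) hs ⟨h.1.det, ?_⟩
  have h1 : (firstDiag hn (Matrix.GeneralLinearGroup.det h)).1.det = h.1.det :=
    congrArg Units.val (det_firstDiag hn _)
  rw [h1]

/-- Split count in orthogonal type, `n` even. -/
theorem splitCount_sym [Fintype F] {m : ℕ} (hn : 2 ≤ n) (hnm : n = 2 * m) (h2 : (2 : F) ≠ 0)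
    (h : GL (Fin n) F) (hs : h.1ᵀ = h.1) :
    Cfsg.splitClassCount (Cfsg.inndiagPSL n F) (Cfsg.Inn (Matrix.ProjectiveSpecialLinearGroup (Fin n) F))
      (gamma h) = Nat.gcd n (Fintype.card F - 1) / 2 := by
  have hne : (-1 : Fˣ) ≠ 1 := fun e => h2 (by
    have := congrArg Units.val e
    simp at this
    linear_combination -this)
  have hord : orderOf (-1 : Fˣ) = 2 := orderOf_eq_prime (by simp) hne
  have hpm : ∀ u : Fˣ, u ^ 2 = 1 → u ∈ Subgroup.zpowers (-1 : Fˣ) := by
    intro u hu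
    have h1 : (u : F) * u = 1 := by rw [← pow_two, ← Units.val_pow_eq_pow_val, hu, Units.val_one]
    rcases mul_self_eq_one_iff.mp h1 with h1 | h1
    · rw [show u = 1 from Units.ext h1]; exact one_mem _
    · rw [show u = -1 from Units.ext (by simpa using h1)]; exact Subgroup.mem_zpowers _
  have hdet : ∀ (a : GL (Fin n) F) (c : Fˣ), a.1 * h.1 * a.1ᵀ = (c : F) • h.1 →
      Matrix.GeneralLinearGroup.det a / c ^ m ∈ Subgroup.zpowers (-1 : Fˣ) := fun a c ha => hpm _ (by
    rw [div_pow, det_sq_of_sim ha, hnm, ← pow_mul, mul_comm, div_self'])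
  obtain ⟨g, hg⟩ := diag_congr hn h2 h hs
  let U : Subgroup Fˣ := (powMonoidHom m : Fˣ →* Fˣ).range ⊔ Subgroup.zpowers (-1 : Fˣ)
  rw [gamma_splitCount hn h U]
  · rw [sup_eq_right.mpr ((index_pow_le (A := Fˣ) ⟨2, by omega⟩ : (powMonoidHom n : Fˣ →* Fˣ).range ≤ _).trans
      le_sup_left), index_pow_sup]
    have h3 := (Subgroup.zpowers (-1 : Fˣ)).index_mul_card
    rw [Nat.card_zpowers, hord, Nat.card_units, Nat.card_eq_fintype_card] at h3
    rw [← h3, hnm, mul_comm 2 m, Nat.gcd_mul_right, Nat.mul_div_cancel _ (by norm_num)]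
  · intro a c ha
    refine Subgroup.mem_sup_right ?_
    have h1 : Matrix.GeneralLinearGroup.det a = c ^ m * (Matrix.GeneralLinearGroup.det a / c ^ m) :=
      (mul_div_cancel _ _).symm
    rw [h1]
    exact Subgroup.mul_mem_sup ⟨c, rfl⟩ (hdet a c ha)
  · intro u hu
    obtain ⟨_, ⟨c, rfl⟩, w, hw, rfl⟩ := Subgroup.mem_sup.mp hu
    -- a similitude of multiplier `c`
    obtain ⟨a, ha⟩ := congr_of_isSquare_det h2 h (Matrix.GeneralLinearGroup.scalar (Fin n) c * h) hs
      (by rw [scalar_mul_val, transpose_smul, hs]) (by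
        refine ⟨h.1.det * (c : F) ^ m, ?_⟩
        rw [scalar_mul_val, det_smul, Fintype.card_fin, congrArg ((c : F) ^ ·) hnm]
        ring)
    rw [scalar_mul_val] at ha
    -- an isometry of determinant `-1`
    have hdiag : (firstDiag hn (-1 : Fˣ)).1 * (firstDiag hn (Matrix.GeneralLinearGroup.det h)).1 *
        (firstDiag hn (-1 : Fˣ)).1ᵀ = (1 : F) • (firstDiag hn (Matrix.GeneralLinearGroup.det h)).1 := by
      rw [one_smul, show (firstDiag hn (-1 : Fˣ)).1ᵀ = (firstDiag hn (-1 : Fˣ)).1 from diagonal_transpose _,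
        ← Units.val_mul, ← Units.val_mul, ← map_mul, ← map_mul]
      simp
    have hR := sim_transport hg _ _ hdiag
    set R := g * firstDiag hn (-1 : Fˣ) * g⁻¹
    have hRdet : Matrix.GeneralLinearGroup.det R = -1 := by rw [det_conj, det_firstDiag]
    obtain ⟨k, hk⟩ := Subgroup.mem_zpowers_iff.mp (mul_mem (inv_mem (hdet a c ha)) hw)
    have hRk : ∀ j : ℕ, (R ^ j).1 * h.1 * (R ^ j).1ᵀ = h.1 := by
      intro j
      induction j with
      | zero => simp
      | succ j ih =>
        rw [one_smul] at hR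
        rw [pow_succ, Units.val_mul, transpose_mul]
        calc (R ^ j).1 * R.1 * h.1 * (R.1ᵀ * (R ^ j).1ᵀ) = (R ^ j).1 * (R.1 * h.1 * R.1ᵀ) * (R ^ j).1ᵀ := by
              simp only [Matrix.mul_assoc]
          _ = _ := by rw [hR, ih]
    obtain ⟨j, hj⟩ : ∃ j : ℕ, (-1 : Fˣ) ^ j = (Matrix.GeneralLinearGroup.det a / c ^ m)⁻¹ * w := by
      obtain ⟨j, hj⟩ := mem_powers_iff_mem_zpowers.mpr (Subgroup.mem_zpowers_iff.mpr ⟨k, hk⟩)
      exact ⟨j, hj⟩
    refine ⟨a * R ^ j, c, ?_, ?_⟩
    · rw [Units.val_mul, transpose_mul]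
      calc a.1 * (R ^ j).1 * h.1 * ((R ^ j).1ᵀ * a.1ᵀ) = a.1 * ((R ^ j).1 * h.1 * (R ^ j).1ᵀ) * a.1ᵀ := by
            simp only [Matrix.mul_assoc]
        _ = _ := by rw [hRk, ha]
    · rw [map_mul, map_pow, hRdet, hj, powMonoidHom_apply, inv_div, ← mul_assoc, mul_div_cancel]

/-- Split count when `n` is odd or the characteristic is two. -/
theorem splitCount_easy [Fintype F] (hn : 2 ≤ n) (h : GL (Fin n) F) (hcase : Odd n ∨ CharP F 2) :
    Cfsg.splitClassCount (Cfsg.inndiagPSL n F) (Cfsg.Inn (Matrix.ProjectiveSpecialLinearGroup (Fin n) F))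
      (gamma h) = Nat.gcd n (Fintype.card F - 1) := by
  rw [gamma_splitCount hn h ⊥]
  · rw [sup_bot_eq, IsCyclic.index_powMonoidHom_range, Nat.card_units, Nat.card_eq_fintype_card,
      Nat.gcd_comm]
  · intro a c ha
    refine Subgroup.mem_sup_left ?_
    have h1 := det_sq_of_sim ha
    rcases hcase with hodd | hchar
    · obtain ⟨m, hm⟩ := hodd
      refine ⟨Matrix.GeneralLinearGroup.det a / c ^ m, ?_⟩
      set d := Matrix.GeneralLinearGroup.det a
      have h3 : ∀ j, j = n → (d / c ^ m) ^ j = (d / c ^ m) ^ n := fun j hj => by rw [hj]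
      rw [powMonoidHom_apply, ← h3 _ hm.symm, div_pow, pow_succ, pow_mul, h1, ← pow_mul, ← pow_mul,
        congrArg (fun j => c ^ (j * m)) hm, mul_comm m]
      exact mul_div_cancel_left _ _
    · haveI := hchar
      obtain ⟨s, hs⟩ := exists_sqrt (c : F)
      have hs0 : s ≠ 0 := fun h0 => c.ne_zero (by rw [← hs, h0, zero_pow (by norm_num)])
      refine ⟨Units.mk0 s hs0, Units.ext (sq_inj' ?_)⟩
      have h2 := congrArg Units.val h1
      simp only [Units.val_pow_eq_pow_val] at h2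
      rw [powMonoidHom_apply, Units.val_pow_eq_pow_val, Units.val_mk0, h2, ← hs, ← pow_mul, ← pow_mul,
        mul_comm]
  · intro u hu
    rw [Subgroup.mem_bot] at hu
    exact ⟨1, 1, by simp, by rw [hu, map_one]⟩

/-! ### Orders -/

/-- The isometries of a matrix. -/
def isom (M : Matrix ι ι F) : Subgroup (GL ι F) where
  carrier := {a | a.1ᵀ * M * a.1 = M}
  mul_mem' := by
    intro a b ha hb
    change (a.1 * b.1)ᵀ * M * (a.1 * b.1) = M
    calc _ = b.1ᵀ * (a.1ᵀ * M * a.1) * b.1 := by rw [transpose_mul]; simp only [Matrix.mul_assoc]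
      _ = _ := by rw [ha, hb]
  one_mem' := by simp
  inv_mem' := by
    intro a ha
    change (a⁻¹).1ᵀ * M * (a⁻¹).1 = M
    calc _ = (a⁻¹).1ᵀ * (a.1ᵀ * M * a.1) * (a⁻¹).1 := by rw [ha]
      _ = (a.1 * (a⁻¹).1)ᵀ * M * (a.1 * (a⁻¹).1) := by rw [transpose_mul]; simp only [Matrix.mul_assoc]
      _ = _ := by rw [Units.mul_inv, transpose_one, Matrix.one_mul, Matrix.mul_one]

theorem mem_isom {M : Matrix ι ι F} {a : GL ι F} : a ∈ isom M ↔ a.1ᵀ * M * a.1 = M := Iff.rfl

theorem scalar_sim (M : Matrix ι ι F) (c : Fˣ) :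
    (Matrix.GeneralLinearGroup.scalar ι c).1ᵀ * M * (Matrix.GeneralLinearGroup.scalar ι c).1 =
      ((c * c : Fˣ) : F) • M := by
  rw [scalar_val, transpose_smul, transpose_one, Matrix.smul_mul, Matrix.mul_smul, Matrix.smul_mul,
    Matrix.one_mul, Matrix.mul_one, smul_smul, Units.val_mul]

/-- Modulo scalars there are as many similitudes as isometries. -/
theorem card_sim_quot [Fintype F] [Nonempty ι] (M : GL ι F)
    (hall : ∀ c : Fˣ, ∃ a : GL ι F, a.1ᵀ * M.1 * a.1 = (c : F) • M.1) :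
    Nat.card (Cfsg.projQuot (sim M.1)) = Nat.card (isom M.1) := by
  have huniq : ∀ {a : Matrix ι ι F} {c d : Fˣ}, a = (c : F) • M.1 → a = (d : F) • M.1 → c = d := by
    intro a c d hc hd
    obtain ⟨i, j, hij⟩ : ∃ i j, M.1 i j ≠ 0 := by
      by_contra hcon
      push Not at hcon
      exact Units.ne_zero M (Matrix.ext hcon)
    have h := congrFun (congrFun (hc.symm.trans hd) i) j
    exact Units.ext (mul_right_cancel₀ hij h)
  let μ : ↥(sim M.1) →* Fˣ := MonoidHom.mk' (fun a => (mem_sim.mp a.2).choose) fun a b => by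
    refine huniq (mem_sim.mp (a * b).2).choose_spec ?_
    calc ((a * b : ↥(sim M.1)).1).1ᵀ * M.1 * ((a * b : ↥(sim M.1)).1).1
        = b.1.1ᵀ * (a.1.1ᵀ * M.1 * a.1.1) * b.1.1 := by
          change (a.1.1 * b.1.1)ᵀ * M.1 * (a.1.1 * b.1.1) = _
          rw [transpose_mul]; simp only [Matrix.mul_assoc]
      _ = _ := by
          have ha := (mem_sim.mp a.2).choose_spec
          have hb := (mem_sim.mp b.2).choose_spec
          generalize (mem_sim.mp a.2).choose = c at ha ⊢
          generalize (mem_sim.mp b.2).choose = d at hb ⊢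
          rw [ha, Matrix.mul_smul, Matrix.smul_mul, hb, smul_smul, Units.val_mul]
  have hμ : ∀ a : ↥(sim M.1), a.1.1ᵀ * M.1 * a.1.1 = (μ a : F) • M.1 := fun a =>
    (mem_sim.mp a.2).choose_spec
  have hsurj : Function.Surjective μ := fun c => by
    obtain ⟨a, ha⟩ := hall c
    exact ⟨⟨a, c, ha⟩, huniq (hμ _) ha⟩
  have hker : Nat.card μ.ker = Nat.card (isom M.1) := by
    refine Nat.card_congr
      { toFun := fun a => ⟨a.1.1, by
          rw [mem_isom, hμ a.1, MonoidHom.mem_ker.mp a.2, Units.val_one, one_smul]⟩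
        invFun := fun a => ⟨⟨a.1, 1, a.2.trans (one_smul F M.1).symm⟩,
          MonoidHom.mem_ker.mpr (huniq (hμ _) (a.2.trans (one_smul F M.1).symm))⟩
        left_inv := fun a => rfl
        right_inv := fun a => rfl }
  have h1 := Subgroup.card_eq_card_quotient_mul_card_subgroup μ.ker
  rw [Nat.card_congr (QuotientGroup.quotientKerEquivOfSurjective μ hsurj).toEquiv, hker] at h1
  have hsc : Cfsg.Geo.scalars ι F ≤ sim M.1 := by
    intro a ha
    obtain ⟨c, rfl⟩ := (mem_scalars_iff' a).mp ha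
    exact ⟨c * c, scalar_sim M.1 c⟩
  have h2 := Subgroup.card_eq_card_quotient_mul_card_subgroup ((Cfsg.Geo.scalars ι F).subgroupOf (sim M.1))
  have h3 : Nat.card ((Cfsg.Geo.scalars ι F).subgroupOf (sim M.1)) = Nat.card Fˣ := by
    rw [Nat.card_congr (Subgroup.subgroupOfEquivOfLe hsc).toEquiv]
    refine (Nat.card_congr (Equiv.ofBijective (fun c : Fˣ =>
      (⟨Matrix.GeneralLinearGroup.scalar ι c, (mem_scalars_iff' _).mpr ⟨c, rfl⟩⟩ :
        ↥(Cfsg.Geo.scalars ι F))) ⟨?_, ?_⟩)).symm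
    · intro c d hcd
      have h4 := congrArg (fun a : ↥(Cfsg.Geo.scalars ι F) =>
        a.1.1 (Classical.arbitrary ι) (Classical.arbitrary ι)) hcd
      simp only [scalar_val, Matrix.smul_apply, one_apply_eq, smul_eq_mul, mul_one] at h4
      exact Units.ext h4
    · rintro ⟨a, ha⟩
      obtain ⟨c, rfl⟩ := (mem_scalars_iff' a).mp ha
      exact ⟨c, rfl⟩
  rw [h3, h1, mul_comm] at h2
  exact (Nat.eq_of_mul_eq_mul_right Nat.card_pos h2).symm

/-- An upper bound for the order of an orthogonal group. -/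
theorem card_isom_diag_le [Fintype F] : ∀ (k : ℕ) (d : Fin k → F), (∀ i, d i ≠ 0) →
    Nat.card (isom (Matrix.diagonal d)) ≤ ∏ i ∈ Finset.range k, 2 * Fintype.card F ^ i := by
  intro k
  induction k with
  | zero =>
    intro d _
    haveI : Subsingleton (GL (Fin 0) F) := ⟨fun a b => Units.ext (Subsingleton.elim _ _)⟩
    simp [Finite.card_le_one_iff_subsingleton]
  | succ k ih =>
    intro d hd
    classical
    let G := isom (Matrix.diagonal d)
    let d' : Fin k → F := fun i => d i.succ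
    letI : MulAction G (Fin (k + 1) → F) :=
      { smul := fun g v => g.1.1 *ᵥ v
        one_smul := fun v => one_mulVec v
        mul_smul := fun g h v => (mulVec_mulVec v g.1.1 h.1.1).symm }
    let e0 : Fin (k + 1) → F := Pi.single 0 1
    have horb : Nat.card (MulAction.orbit G e0) ≤ 2 * Fintype.card F ^ k := by
      have hsub : ∀ v ∈ MulAction.orbit G e0,
          d 0 * v 0 ^ 2 = d 0 - ∑ i : Fin k, d i.succ * v i.succ ^ 2 := by
        rintro _ ⟨g, rfl⟩
        have h1 : (g.1.1 *ᵥ e0) ⬝ᵥ Matrix.diagonal d *ᵥ (g.1.1 *ᵥ e0) = e0 ⬝ᵥ Matrix.diagonal d *ᵥ e0 := by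
          rw [transpose_congr_form, mem_isom.mp g.2]
        have hq : ∀ v : Fin (k + 1) → F, v ⬝ᵥ Matrix.diagonal d *ᵥ v =
            d 0 * v 0 ^ 2 + ∑ i : Fin k, d i.succ * v i.succ ^ 2 := by
          intro v
          simp only [dotProduct, mulVec_diagonal, Fin.sum_univ_succ]
          congr 1
          · ring
          · exact Finset.sum_congr rfl fun i _ => by ring
        rw [hq, hq] at h1
        have hz : ∑ i : Fin k, d i.succ * e0 i.succ ^ 2 = 0 :=
          Finset.sum_eq_zero fun i _ => by simp [e0, Fin.succ_ne_zero]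
        rw [hz, show e0 0 = 1 from Pi.single_eq_same _ _] at h1
        change d 0 * (g.1.1 *ᵥ e0) 0 ^ 2 = _ - ∑ i : Fin k, d i.succ * (g.1.1 *ᵥ e0) i.succ ^ 2
        linear_combination h1
      let S : Finset (Fin (k + 1) → F) := (MulAction.orbit G e0).toFinset
      have hS : Nat.card (MulAction.orbit G e0) = S.card := by
        rw [Nat.card_coe_set_eq, Set.ncard_eq_toFinset_card']
      rw [hS]
      refine (Finset.card_le_mul_card_image S 2 (f := fun v i => v (Fin.succ i)) ?_).trans ?_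
      · intro w _
        by_contra hcon
        obtain ⟨a, b, c, ha, hb, hc, hab, hac, hbc⟩ := Finset.two_lt_card_iff.mp (not_le.mp hcon)
        simp only [Finset.mem_filter, S, Set.mem_toFinset] at ha hb hc
        have hval : ∀ u v : Fin (k + 1) → F, u ∈ MulAction.orbit G e0 → v ∈ MulAction.orbit G e0 →
            (fun i => u (Fin.succ i)) = w → (fun i => v (Fin.succ i)) = w → u ≠ v → u 0 = -v 0 := by
          intro u v hu hv hu' hv' huv
          have htail : ∀ i, u (Fin.succ i) = v (Fin.succ i) := fun i => congrFun (hu'.trans hv'.symm) i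
          have h1 := hsub u hu
          simp only [htail, ← hsub v hv] at h1
          rcases sq_eq_sq_iff_eq_or_eq_neg.mp (mul_left_cancel₀ (hd 0) h1) with h2 | h2
          · exact absurd (funext fun i => Fin.cases h2 htail i) huv
          · exact h2
        have h1 := hval a b ha.1 hb.1 ha.2 hb.2 hab
        have h2 := hval a c ha.1 hc.1 ha.2 hc.2 hac
        exact hbc (funext fun i => Fin.cases (neg_injective (h1.symm.trans h2))
          (fun i => congrFun (hb.2.trans hc.2.symm) i) i)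
      · exact Nat.mul_le_mul_left 2 ((Finset.card_le_univ _).trans (by simp))
    have hstab : Nat.card (MulAction.stabilizer G e0) ≤ ∏ i ∈ Finset.range k, 2 * Fintype.card F ^ i := by
      refine le_trans ?_ (ih d' fun i => hd _)
      have hcol : ∀ g : MulAction.stabilizer G e0, ∀ i, g.1.1.1 i 0 = e0 i := fun g i => by
        have h1 : g.1.1.1 *ᵥ e0 = e0 := g.2
        simpa [e0, mulVec_single] using congrFun h1 i
      have hrow : ∀ g : MulAction.stabilizer G e0, ∀ j, g.1.1.1 0 j = e0 j := fun g j => by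
        have h1 := congrFun (congrFun (mem_isom.mp g.1.2) 0) j
        rw [Matrix.mul_apply, Finset.sum_eq_single 0] at h1
        · rw [mul_diagonal, transpose_apply, hcol, show e0 0 = 1 from Pi.single_eq_same _ _, one_mul] at h1
          refine mul_left_cancel₀ (hd 0) ?_
          rw [h1]
          by_cases hj : j = 0
          · subst hj; simp [e0]
          · simp [e0, hj, Ne.symm hj]
        · intro b _ hb
          rw [mul_diagonal, transpose_apply, hcol]
          simp [e0, hb]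
        · simp
      let sub : Matrix (Fin (k + 1)) (Fin (k + 1)) F → Matrix (Fin k) (Fin k) F := fun A =>
        A.submatrix Fin.succ Fin.succ
      have hsubmul : ∀ g h : MulAction.stabilizer G e0,
          sub (g.1.1.1 * h.1.1.1) = sub g.1.1.1 * sub h.1.1.1 := by
        intro g h
        ext i j
        simp only [sub, submatrix_apply, Matrix.mul_apply, Fin.sum_univ_succ]
        rw [hcol g i.succ, show e0 i.succ = 0 from Pi.single_eq_of_ne (Fin.succ_ne_zero i) _, zero_mul,
          zero_add]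
      have hiso : ∀ g : MulAction.stabilizer G e0,
          (sub g.1.1.1)ᵀ * Matrix.diagonal d' * sub g.1.1.1 = Matrix.diagonal d' := by
        intro g
        ext i j
        have h1 := congrFun (congrFun (mem_isom.mp g.1.2) i.succ) j.succ
        rw [Matrix.mul_apply, Fin.sum_univ_succ, mul_diagonal, transpose_apply, hrow, hrow,
          show e0 j.succ = 0 from Pi.single_eq_of_ne (Fin.succ_ne_zero j) _, mul_zero, zero_add] at h1
        simp only [mul_diagonal, transpose_apply] at h1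
        rw [Matrix.mul_apply]
        simp only [sub, mul_diagonal, transpose_apply, submatrix_apply, d']
        rw [h1]
        by_cases hij : i = j
        · subst hij; simp
        · simp [hij, fun hh : i.succ = j.succ => hij (Fin.succ_injective _ hh)]
      have hone : ∀ g : MulAction.stabilizer G e0, sub g.1.1.1 * sub g⁻¹.1.1.1 = 1 := by
        intro g
        rw [← hsubmul, show g.1.1.1 * g⁻¹.1.1.1 = 1 from Units.mul_inv g.1.1]
        exact submatrix_one _ (Fin.succ_injective _)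
      let φ : MulAction.stabilizer G e0 → isom (Matrix.diagonal d') := fun g =>
        ⟨⟨sub g.1.1.1, sub g⁻¹.1.1.1, hone g, mul_eq_one_comm.mp (hone g)⟩, hiso g⟩
      refine Nat.card_le_card_of_injective φ fun g h hgh => ?_
      refine Subtype.ext (Subtype.ext (Units.ext (Matrix.ext fun i j => ?_)))
      have h1 : sub g.1.1.1 = sub h.1.1.1 := congrArg (fun a => a.1.1) hgh
      induction i using Fin.cases with
      | zero => rw [hrow, hrow]
      | succ i =>
        induction j using Fin.cases with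
        | zero => rw [hcol, hcol]
        | succ j => exact congrFun (congrFun h1 i) j
    have hmul : Nat.card (MulAction.orbit G e0) * Nat.card (MulAction.stabilizer G e0) = Nat.card G := by
      rw [← Nat.card_prod]
      exact Nat.card_congr (MulAction.orbitProdStabilizerEquivGroup G e0)
    change Nat.card G ≤ _
    rw [← hmul, Finset.prod_range_succ, mul_comm (∏ i ∈ Finset.range k, 2 * Fintype.card F ^ i)]
    exact Nat.mul_le_mul horb hstab

theorem bound_lt {q m : ℕ} (hq : 3 ≤ q) (hm : 1 ≤ m) :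
    ∏ i ∈ Finset.range (2 * m), 2 * q ^ i < q ^ (m ^ 2) * ∏ i ∈ Finset.range m, (q ^ (2 * (i + 1)) - 1) := by
  have step : ∀ m, ∏ i ∈ Finset.range (2 * m), 2 * q ^ i ≤
      q ^ (m ^ 2) * ∏ i ∈ Finset.range m, (q ^ (2 * (i + 1)) - 1) →
      ∏ i ∈ Finset.range (2 * (m + 1)), 2 * q ^ i <
        q ^ ((m + 1) ^ 2) * ∏ i ∈ Finset.range (m + 1), (q ^ (2 * (i + 1)) - 1) := by
    intro m ih
    set L := ∏ i ∈ Finset.range (2 * m), 2 * q ^ i with hL
    have e1 : ∏ i ∈ Finset.range (2 * (m + 1)), 2 * q ^ i = L * (4 * q ^ (4 * m + 1)) := by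
      rw [show 2 * (m + 1) = 2 * m + 1 + 1 by ring, Finset.prod_range_succ, Finset.prod_range_succ, ← hL,
        show 4 * m + 1 = 2 * m + (2 * m + 1) by ring, pow_add]
      ring
    have e2 : q ^ ((m + 1) ^ 2) * ∏ i ∈ Finset.range (m + 1), (q ^ (2 * (i + 1)) - 1) =
        (q ^ (m ^ 2) * ∏ i ∈ Finset.range m, (q ^ (2 * (i + 1)) - 1)) *
          (q ^ (2 * m + 1) * (q ^ (2 * (m + 1)) - 1)) := by
      rw [Finset.prod_range_succ, show (m + 1) ^ 2 = m ^ 2 + (2 * m + 1) by ring, pow_add]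
      ring
    rw [e1, e2]
    have hpos : 0 < L := Finset.prod_pos fun i _ => by positivity
    have hlt : 4 * q ^ (4 * m + 1) < q ^ (2 * m + 1) * (q ^ (2 * (m + 1)) - 1) := by
      rw [Nat.mul_sub, mul_one, ← pow_add, show 2 * m + 1 + 2 * (m + 1) = 4 * m + 1 + 2 by ring,
        pow_add q (4 * m + 1) 2]
      have h2 : q ^ (2 * m + 1) ≤ q ^ (4 * m + 1) := Nat.pow_le_pow_right (by omega) (by omega)
      have h3 : 9 * q ^ (4 * m + 1) ≤ q ^ (4 * m + 1) * q ^ 2 := by
        rw [mul_comm 9]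
        exact Nat.mul_le_mul_left _ (by nlinarith)
      have h4 : 0 < q ^ (4 * m + 1) := by positivity
      generalize q ^ (4 * m + 1) * q ^ 2 = C at *
      generalize q ^ (4 * m + 1) = A at *
      generalize q ^ (2 * m + 1) = B at *
      omega
    calc L * (4 * q ^ (4 * m + 1)) < L * (q ^ (2 * m + 1) * (q ^ (2 * (m + 1)) - 1)) :=
          Nat.mul_lt_mul_of_pos_left hlt hpos
      _ ≤ _ := Nat.mul_le_mul_right _ ih
  obtain ⟨m, rfl⟩ : ∃ j, m = j + 1 := ⟨m - 1, by omega⟩
  clear hm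
  induction m with
  | zero => exact step 0 (by simp)
  | succ m ih => exact step _ ih.le

/-- A symmetric `h` does not have the centralizer `PGSp`. -/
theorem not_iso_PGSp [Fintype F] {m : ℕ} (hn : 2 ≤ n) (hnm : n = 2 * m) (h2 : (2 : F) ≠ 0)
    (h : GL (Fin n) F) (hs : h.1ᵀ = h.1) :
    ¬ Nonempty (↥(Cfsg.inndiagPSL n F ⊓ Subgroup.centralizer
      {(gamma h : MulAut (Matrix.ProjectiveSpecialLinearGroup (Fin n) F))}) ≃* Cfsg.PGSp m F) := by
  rintro ⟨f⟩
  haveI : Nonempty (Fin n) := ⟨⟨0, by omega⟩⟩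
  haveI : Nonempty (Fin m) := ⟨⟨0, by omega⟩⟩
  set D := firstDiag hn (Matrix.GeneralLinearGroup.det h) with hD
  obtain ⟨g, hg⟩ := diag_congr hn h2 h hs
  obtain ⟨f1⟩ := gamma_centralizer_congr hn h D 1
    (by rw [Units.val_one, one_smul]; exact Congr.symm ⟨g, hg⟩)
  obtain ⟨f2⟩ := gamma_centralizer_subgroup hn D.1 (Equiv.refl _) D rfl (H := sim D.1) rfl
  have hc1 : Nat.card (Cfsg.projQuot (sim D.1)) = Nat.card (Cfsg.PGSp m F) :=
    Nat.card_congr ((f2.symm.trans f1.symm).trans f).toEquiv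
  have hDs : D.1ᵀ = D.1 := diagonal_transpose _
  have hallD : ∀ c : Fˣ, ∃ a : GL (Fin n) F, a.1ᵀ * D.1 * a.1 = (c : F) • D.1 := by
    intro c
    obtain ⟨a, ha⟩ := congr_of_isSquare_det h2 D (Matrix.GeneralLinearGroup.scalar (Fin n) c * D) hDs
      (by rw [scalar_mul_val, transpose_smul, hDs]) (by
        refine ⟨D.1.det * (c : F) ^ m, ?_⟩
        rw [scalar_mul_val, det_smul, Fintype.card_fin, congrArg ((c : F) ^ ·) hnm]
        ring)
    rw [scalar_mul_val] at ha
    exact ⟨⟨a.1ᵀ, (a⁻¹).1ᵀ, by rw [← transpose_mul, Units.inv_mul, transpose_one],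
      by rw [← transpose_mul, Units.mul_inv, transpose_one]⟩, by
      change a.1ᵀᵀ * D.1 * a.1ᵀ = _
      rw [transpose_transpose]; exact ha⟩
  have hallJ : ∀ c : Fˣ, ∃ a : GL (Fin m ⊕ Fin m) F,
      a.1ᵀ * (unitJ (F := F) m).1 * a.1 = (c : F) • (unitJ (F := F) m).1 := fun c =>
    ⟨sympDiag m c, by
      change (Matrix.fromBlocks _ _ _ _)ᵀ * Matrix.J (Fin m) F * _ = (c : F) • Matrix.J (Fin m) F
      simp [sympDiag, Matrix.J, fromBlocks_multiply, fromBlocks_transpose, fromBlocks_smul]⟩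
  have hPG : Nat.card (Cfsg.PGSp m F) = Nat.card (Cfsg.projQuot (sim (unitJ (F := F) m).1)) := by
    change Nat.card (Cfsg.projQuot (Cfsg.Geo.similarityGroup (Cfsg.sympForm m F))) = _
    rw [symp_similarity_eq_sim]
    rfl
  rw [card_sim_quot D hallD, hPG, card_sim_quot (unitJ m) hallJ] at hc1
  have hsp : Nat.card (isom (unitJ (F := F) m).1) = Nat.card (Matrix.symplecticGroup (Fin m) F) :=
    Nat.card_congr
      { toFun := fun a => ⟨a.1.1, SymplecticGroup.mem_iff'.mpr a.2⟩
        invFun := fun a => ⟨(Matrix.symplecticGroup (Fin m) F).subtype.toHomUnits a,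
          SymplecticGroup.mem_iff'.mp a.2⟩
        left_inv := fun a => Subtype.ext (Units.ext rfl)
        right_inv := fun a => Subtype.ext rfl }
  rw [hsp, Classical.Symp.card_symplecticGroup] at hc1
  have hb : Nat.card (isom D.1) ≤ ∏ i ∈ Finset.range n, 2 * Fintype.card F ^ i :=
    card_isom_diag_le n _ fun i => Units.ne_zero _
  rw [hc1, congrArg (fun j => ∏ i ∈ Finset.range j, 2 * Fintype.card F ^ i) hnm] at hb
  have hq : 3 ≤ Fintype.card F := by
    by_contra hcon
    have h5 : Fintype.card F = 2 := by have := Fintype.one_lt_card (α := F); omega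
    refine h2 ?_
    haveI : CharP F 2 := ringChar.of_eq (FiniteField.even_card_iff_char_two.mpr (by omega))
    exact CharTwo.two_eq_zero
  exact absurd hb (not_le.mpr (bound_lt hq (by omega)))

end CfsgLib.AutPSL
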